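import Cfsg.Agent.Lib.MajorForm.CycMean
import Cfsg.Agent.Lib.Block.RankTwo
import Cfsg.Agent.Lib.Block.BrauerFeit

/-!
# The members of a block against the minimum of the form of a major subsection

For a major subsection `(x, b)` of defect `d`, the scaled truncated norm on the lattice spanned by
the regular parts of the members of `b` bounds the number of characters of the block.
-/

set_option autoImplicit false
set_option linter.unusedSectionVars false
set_option linter.style.haveILetI false

namespace Cfsg.Agent.Lib.MajorForm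

open Cfsg Cfsg.Agent.Lib Cfsg.Agent.Lib.Block Cfsg.Agent.Lib.CharCyclo
open scoped ComplexConjugate

universe u

variable {p : ℕ} {M : Ideal AlgInt} [M.IsPrime] {G : Type u} [Group G] [Finite G]

open scoped Classical in
/-- An integral combination of the regular parts of the members of a set. -/
noncomputable def regComb [Fintype (IrrCharacter G)] (p : ℕ) (b : Set (IrrCharacter G))
    (c : IrrCharacter G → ℤ) : G → ℂ :=
  ∑ ξ : IrrCharacter G, if ξ ∈ b then (c ξ : ℂ) • pRegularPart p (ξ : G → ℂ) else 0

/-- The scaled norm takes no value strictly between zero and `μ`. -/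
def HasFormMin (p d : ℕ) [Fintype G] (b : Set (IrrCharacter G)) (μ : ℕ) : Prop :=
  ∀ c : IrrCharacter G → ℤ, regComb p b c = 0 ∨
    (μ : ℝ) ≤ ((p : ℂ) ^ d * classInner (regComb p b c) (regComb p b c)).re

theorem classInner_self_re_nonneg [Fintype G] (f : G → ℂ) : 0 ≤ (classInner f f).re := by
  rw [classInner, ← Complex.ofReal_natCast, ← Complex.ofReal_inv, Complex.re_ofReal_mul,
    Complex.re_sum]
  refine mul_nonneg (inv_nonneg.2 (Nat.cast_nonneg _)) (Finset.sum_nonneg fun g _ => ?_)
  rw [Complex.mul_conj, Complex.ofReal_re]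
  exact Complex.normSq_nonneg _

/-- The value one is always available. -/
theorem hasFormMin_one [Fintype G] (hM : IsPModular p M) {b : Set (IrrCharacter G)}
    (hb : IsPBlock M b) {d : ℕ} (hd : blockDefect p b = d) : HasFormMin p d b 1 := by
  classical
  intro c
  rw [or_iff_not_imp_left]
  intro hne
  choose z hz using fun ξ η : {ξ : IrrCharacter G // ξ ∈ b} => exists_int_regInner hM hb hd (η := η.1) ξ.2
  have hval : (p : ℂ) ^ d * classInner (regComb p b c) (regComb p b c) =
      ((∑ ξ : {ξ : IrrCharacter G // ξ ∈ b}, ∑ η : {ξ : IrrCharacter G // ξ ∈ b},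
        c ξ.1 * c η.1 * z ξ η : ℤ) : ℂ) := by
    have he : regComb p b c = ∑ ξ : {ξ : IrrCharacter G // ξ ∈ b},
        (c ξ.1 : ℂ) • pRegularPart p (ξ.1 : G → ℂ) := by
      rw [regComb, ← Finset.sum_filter]
      exact Finset.sum_subtype _ (fun ξ => by simp)
        (fun ξ => (c ξ : ℂ) • pRegularPart p (ξ : G → ℂ))
    simp only [he, Char.classInner_sum_left, Char.classInner_sum_right, Char.classInner_smul_left,
      Char.classInner_smul_right, classInner_pRegularPart, map_intCast, Finset.mul_sum]
    push_cast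
    simp only [← hz]
    rw [Finset.sum_comm]
    exact Finset.sum_congr rfl fun ξ _ => Finset.sum_congr rfl fun η _ => by ring
  have hpos : 0 < ((p : ℂ) ^ d * classInner (regComb p b c) (regComb p b c)).re := by
    have h0 := classInner_self_re_nonneg (regComb p b c)
    have hne' : (classInner (regComb p b c) (regComb p b c)).re ≠ 0 := by
      intro h
      refine hne (Char.eq_zero_of_classInner_self _ (Complex.ext h ?_))
      have hc := congrArg Complex.im (Char.classInner_conj_symm (regComb p b c) (regComb p b c))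
      simp only [Complex.conj_im] at hc
      simp only [Complex.zero_im]
      linarith
    rw [← Nat.cast_pow, ← Complex.ofReal_natCast, Complex.re_ofReal_mul]
    exact mul_pos (Nat.cast_pos.2 (pow_pos hM.1.pos d)) (lt_of_le_of_ne h0 (Ne.symm hne'))
  rw [hval] at hpos ⊢
  simp only [Complex.intCast_re, Nat.cast_one] at hpos ⊢
  exact_mod_cast hpos

/-- The members of a block, `μ` times, are at most the order of the defect group times the rank of
a major subsection. -/
theorem mul_card_le (hM : IsPModular p M) {x : G} (hx : IsPElem p x)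
    [Fintype (Subgroup.centralizer ({x} : Set G))]
    {b : Set (IrrCharacter (Subgroup.centralizer ({x} : Set G)))} {B : Set (IrrCharacter G)} {d : ℕ}
    (hind : IsInducedBlock M (Subgroup.centralizer ({x} : Set G)) b B)
    (hd : blockDefect p b = d) (hBd : blockDefect p B = d) {μ : ℕ} (hμ : 1 ≤ μ)
    (hmin : HasFormMin p d b μ) : μ * Nat.card B ≤ p ^ d * blockRank p b := by
  classical
  haveI : Fact p.Prime := ⟨hM.1⟩
  haveI := Fintype.ofFinite G
  set S := {ξ : IrrCharacter (Subgroup.centralizer ({x} : Set G)) // ξ ∈ b}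
  set k := (Nat.card (Subgroup.centralizer ({x} : Set G))).factorization p with hk
  have hN0 : p * p ^ k ≠ 0 := mul_ne_zero hM.1.ne_zero (pow_ne_zero _ hM.1.ne_zero)
  haveI : NeZero (p * p ^ k) := ⟨hN0⟩
  set ζ := Complex.exp (2 * Real.pi * Complex.I / ((p * p ^ k : ℕ) : ℂ))
  have hζ : IsPrimitiveRoot ζ (p * p ^ k) := Complex.isPrimitiveRoot_exp _ hN0
  set n : IrrCharacter G → S → ℂ := fun χ ξ => secCoeff x χ ξ.1 with hn
  have hmem : ∀ χ ξ, n χ ξ ∈ cycSpan ζ := by
    intro χ ξ
    obtain ⟨ν, m, j, he, hres, hν, hνN⟩ := secCoeff_eq hM hx χ ξ.1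
    have hνk : ν ^ p ^ k = 1 := by
      rw [← orderOf_dvd_iff_pow_eq_one]
      obtain ⟨i, hi, hio⟩ := (Nat.dvd_prime_pow hM.1).1 (orderOf_dvd_of_pow_eq_one hν)
      rw [hio]
      refine Nat.pow_dvd_pow p ?_
      rw [hk, ← hM.1.pow_dvd_iff_le_factorization Nat.card_pos.ne', ← hio]
      exact orderOf_dvd_of_pow_eq_one hνN
    have : ν ^ (p * p ^ k) = 1 := by rw [mul_comm, pow_mul, hνk, one_pow]
    rw [hn]
    simp only [he, hres]
    rw [mul_comm, show (m : ℂ) = ((m : ℤ) : ℂ) by simp]
    exact intCast_mul_mem_cycSpan _ (rootOfUnity_mem_cycSpan hζ this)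
  choose Q hQ using fun ξ η : S => exists_int_regInner hM hind.1 hd (ξ := ξ.1) (η := η.1) ξ.2
  have hsymm : ∀ ξ η, Q ξ η = Q η ξ := fun ξ η => by
    apply Int.cast_injective (α := ℂ)
    rw [← hQ, ← hQ, regInner_comm hM.1]
  have hform : ∀ a : S → ℤ, MajorForm.bil Q a a = 0 ∨ (μ : ℤ) ≤ MajorForm.bil Q a a := by
    intro a
    let c : IrrCharacter (Subgroup.centralizer ({x} : Set G)) → ℤ := fun ξ => if h : ξ ∈ b then a ⟨ξ, h⟩ else 0
    have he : regComb p b c = ∑ ξ : S, (a ξ : ℂ) • pRegularPart p (ξ.1 : (Subgroup.centralizer ({x} : Set G)) → ℂ) := by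
      rw [regComb, ← Finset.sum_filter]
      refine (Finset.sum_subtype _ (fun ξ => by simp)
        (fun ξ => (c ξ : ℂ) • pRegularPart p (ξ : (Subgroup.centralizer ({x} : Set G)) → ℂ))).trans (Finset.sum_congr rfl fun ξ _ => ?_)
      simp [c, ξ.2]
    have hval : (p : ℂ) ^ d * classInner (regComb p b c) (regComb p b c) =
        ((MajorForm.bil Q a a : ℤ) : ℂ) := by
      simp only [he, MajorForm.bil, Char.classInner_sum_left, Char.classInner_sum_right,
        Char.classInner_smul_left, Char.classInner_smul_right, classInner_pRegularPart, map_intCast,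
        Finset.mul_sum, Int.cast_sum, Int.cast_mul, ← hQ]
      rw [Finset.sum_comm]
      exact Finset.sum_congr rfl fun ξ _ => Finset.sum_congr rfl fun η _ => by ring
    rcases hmin c with h | h
    · left
      rw [h, Char.classInner_zero_left, mul_zero] at hval
      exact_mod_cast hval.symm
    · right
      rw [hval, Complex.intCast_re] at h
      exact_mod_cast h
  have hsec : ∀ χ : IrrCharacter G, (p : ℂ) ^ d * classInner (sectionMap p x b (χ : G → ℂ))
      (sectionMap p x b (χ : G → ℂ)) =
        ∑ i, ∑ j, n χ i * (Q i j : ℂ) * conj (n χ j) := by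
    intro χ
    have he : sectionMap p x b (χ : G → ℂ) =
        ∑ ξ : S, n χ ξ • pRegularPart p (ξ.1 : (Subgroup.centralizer ({x} : Set G)) → ℂ) := by
      rw [sectionMap_eq_sum]
      simp only [ite_smul, zero_smul]
      rw [← Finset.sum_filter]
      exact Finset.sum_subtype _ (fun ξ => by simp)
        (fun ξ => secCoeff x χ ξ • pRegularPart p (ξ : (Subgroup.centralizer ({x} : Set G)) → ℂ))
    simp only [he, Char.classInner_sum_left, Char.classInner_sum_right, Char.classInner_smul_left,
      Char.classInner_smul_right, classInner_pRegularPart, Finset.mul_sum, ← hQ]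
    rw [Finset.sum_comm]
    exact Finset.sum_congr rfl fun ξ _ => Finset.sum_congr rfl fun η _ => by ring
  have h := card_form_le hM hζ Q hsymm (μ := (μ : ℤ)) (by exact_mod_cast hμ) hform n hmem
    ((p : ℤ) ^ d * blockRank p b) (by
      simp only [← hsec]
      rw [← Finset.mul_sum, sum_contrib_self hM hx hind.1]
      push_cast
      rfl)
  simp only [← hsec] at h
  obtain ⟨ψ₀, hψ₀, hψ₀h⟩ := exists_height_zero hind.2.1 p
  have hne : ∀ χ ∈ B, (p : ℂ) ^ d * classInner (sectionMap p x b (χ : G → ℂ))
      (sectionMap p x b (χ : G → ℂ)) ≠ 0 := by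
    intro χ hχ h0
    obtain ⟨u, -, hu0, he⟩ := exists_contrib_unit hM hx hind hd hBd hχ hψ₀ hψ₀h
    rw [Char.eq_zero_of_classInner_self _ ((mul_eq_zero.1 h0).resolve_left
      (pow_ne_zero _ (Nat.cast_ne_zero.2 hM.1.ne_zero))), Char.classInner_zero_left, mul_zero] at he
    refine (mul_ne_zero ?_ fun h => hu0 (by rw [h, redC_zero])) he.symm
    rw [degUnit, div_ne_zero_iff]
    exact ⟨Nat.cast_ne_zero.2 (mul_ne_zero (pow_ne_zero _ hM.1.ne_zero) (charDegree_pos χ).ne'),
      Char.card_ne_zero_complex G⟩
  have hle : Nat.card B ≤ Nat.card {χ : IrrCharacter G // (p : ℂ) ^ d *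
      classInner (sectionMap p x b (χ : G → ℂ)) (sectionMap p x b (χ : G → ℂ)) ≠ 0} :=
    Nat.card_le_card_of_injective (fun χ => ⟨χ.1, hne _ χ.2⟩)
      fun a c h => Subtype.ext (congrArg Subtype.val h :)
  have h2 : ((μ * Nat.card B : ℕ) : ℤ) ≤ ((p ^ d * blockRank p b : ℕ) : ℤ) := by
    push_cast
    refine le_trans (mul_le_mul_of_nonneg_left ?_ (Int.natCast_nonneg _)) h
    exact_mod_cast hle
  exact_mod_cast h2

end Cfsg.Agent.Lib.MajorForm
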