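import Cfsg.Agent.Lib.Block.CycWeight

/-!
# Galois means of a semidefinite integral form on cyclotomic vectors

If a symmetric integral form takes no value strictly between `0` and `μ` and below `0`, then a
family of cyclotomic vectors of total value `c` has at most `c / μ` members of nonzero value.
-/

set_option autoImplicit false
set_option linter.unusedSectionVars false
set_option linter.style.haveILetI false

namespace Cfsg.Agent.Lib.MajorForm

open Cfsg Cfsg.Agent.Lib Cfsg.Agent.Lib.Block Cfsg.Agent.Lib.CharCyclo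
open scoped ComplexConjugate

universe u v

/-- Parseval for two integral polynomials at the powers of a primitive root of unity. -/
theorem sum_eval_mul_conj₂ {N : ℕ} {η : ℂ} (hη : IsPrimitiveRoot η N) (hN : N ≠ 0)
    (c d : Fin N → ℤ) :
    ∑ j ∈ Finset.range N, (∑ e : Fin N, (c e : ℂ) * (η ^ j) ^ (e : ℕ)) *
        conj (∑ e : Fin N, (d e : ℂ) * (η ^ j) ^ (e : ℕ)) =
      ((N * ∑ e : Fin N, c e * d e : ℤ) : ℂ) := by
  have hc : conj η = η⁻¹ := conj_root hN hη.pow_eq_one
  have h0 : η ≠ 0 := hη.ne_zero hN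
  simp only [map_sum, map_mul, map_pow, map_intCast, hc, Finset.mul_sum, Finset.sum_mul]
  rw [Finset.sum_comm]
  push_cast
  refine Finset.sum_congr rfl fun e _ => ?_
  rw [Finset.sum_comm, Finset.sum_eq_single e]
  · rw [Finset.sum_congr rfl fun j _ => show ((c e : ℂ) * (η ^ j) ^ (e : ℕ)) *
        ((d e : ℂ) * (η⁻¹ ^ j) ^ (e : ℕ)) = (c e : ℂ) * d e by
      rw [mul_mul_mul_comm, ← mul_pow, ← mul_pow, mul_inv_cancel₀ h0, one_pow, one_pow, mul_one]]
    simp
  · intro e' _ hne
    rw [Finset.sum_congr rfl fun j _ => show ((c e' : ℂ) * (η ^ j) ^ (e' : ℕ)) *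
        ((d e : ℂ) * (η⁻¹ ^ j) ^ (e : ℕ)) = (c e' : ℂ) * d e * (η ^ (e' : ℕ) * η⁻¹ ^ (e : ℕ)) ^ j by
      rw [mul_pow, ← pow_mul, ← pow_mul, ← pow_mul, ← pow_mul, mul_comm j, mul_comm j]; ring,
      ← Finset.mul_sum]
    have hne1 : η ^ (e' : ℕ) * η⁻¹ ^ (e : ℕ) ≠ 1 := by
      rw [inv_pow, ← div_eq_mul_inv, Ne, div_eq_one_iff_eq (pow_ne_zero _ h0)]
      exact fun h => hne (Fin.ext (hη.pow_inj e'.2 e.2 h))
    have hq : (η ^ (e' : ℕ) * η⁻¹ ^ (e : ℕ)) ^ N = 1 := by
      rw [mul_pow, ← pow_mul, ← pow_mul, mul_comm (e : ℕ), mul_comm (e' : ℕ), pow_mul, pow_mul,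
        inv_pow, hη.pow_eq_one, inv_one, one_pow, one_pow, one_mul]
    rw [geom_sum_eq hne1, hq, sub_self, zero_div, mul_zero]
  · simp

section Form

variable {κ : Type v} [Fintype κ] (Q : κ → κ → ℤ)

/-- The value of the form on two vectors. -/
def bil (a b : κ → ℤ) : ℤ := ∑ i, ∑ j, a i * Q i j * b j

theorem bil_add_left (a a' b : κ → ℤ) : bil Q (a + a') b = bil Q a b + bil Q a' b := by
  simp only [bil, Pi.add_apply, add_mul, Finset.sum_add_distrib]

theorem bil_add_right (a b b' : κ → ℤ) : bil Q a (b + b') = bil Q a b + bil Q a b' := by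
  simp only [bil, Pi.add_apply, mul_add, Finset.sum_add_distrib]

theorem bil_sub_left (a a' b : κ → ℤ) : bil Q (a - a') b = bil Q a b - bil Q a' b := by
  simp only [bil, Pi.sub_apply, sub_mul, Finset.sum_sub_distrib]

theorem bil_sub_right (a b b' : κ → ℤ) : bil Q a (b - b') = bil Q a b - bil Q a b' := by
  simp only [bil, Pi.sub_apply, mul_sub, Finset.sum_sub_distrib]

theorem bil_sum_left {σ : Type*} (s : Finset σ) (f : σ → κ → ℤ) (b : κ → ℤ) :
    bil Q (∑ x ∈ s, f x) b = ∑ x ∈ s, bil Q (f x) b := by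
  simp only [bil, Finset.sum_apply, Finset.sum_mul]
  rw [Finset.sum_comm (s := s)]
  exact Finset.sum_congr rfl fun i _ => Finset.sum_comm

theorem bil_sum_right {σ : Type*} (s : Finset σ) (a : κ → ℤ) (f : σ → κ → ℤ) :
    bil Q a (∑ x ∈ s, f x) = ∑ x ∈ s, bil Q a (f x) := by
  simp only [bil, Finset.sum_apply, Finset.mul_sum]
  rw [Finset.sum_comm (s := s)]
  exact Finset.sum_congr rfl fun i _ => Finset.sum_comm

theorem bil_smul_left (t : ℤ) (a b : κ → ℤ) : bil Q (t • a) b = t * bil Q a b := by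
  simp only [bil, Pi.smul_apply, smul_eq_mul, Finset.mul_sum]
  exact Finset.sum_congr rfl fun i _ => Finset.sum_congr rfl fun j _ => by ring

theorem bil_smul_right (t : ℤ) (a b : κ → ℤ) : bil Q a (t • b) = t * bil Q a b := by
  simp only [bil, Pi.smul_apply, smul_eq_mul, Finset.mul_sum]
  exact Finset.sum_congr rfl fun i _ => Finset.sum_congr rfl fun j _ => by ring

/-- The weight of one residue class of vectors. -/
def vecWeight {p : ℕ} (a : Fin p → κ → ℤ) : ℤ :=
  (p : ℤ) * ∑ s, bil Q (a s) (a s) - bil Q (∑ s, a s) (∑ s, a s)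

theorem two_mul_vecWeight {p : ℕ} (a : Fin p → κ → ℤ) :
    2 * vecWeight Q a = ∑ s, ∑ t, bil Q (a s - a t) (a s - a t) := by
  simp only [vecWeight, bil_sum_left, bil_sum_right, bil_sub_left, bil_sub_right,
    Finset.sum_sub_distrib, Finset.sum_const, Finset.card_univ, Fintype.card_fin, nsmul_eq_mul]
  rw [Finset.sum_comm (f := fun s t => bil Q (a t) (a s))]
  simp only [← Finset.mul_sum]
  ring

variable {Q} {μ : ℤ} (hQ : ∀ a, bil Q a a = 0 ∨ μ ≤ bil Q a a) (hμ : 1 ≤ μ)

include hQ hμ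

theorem bil_nonneg (a : κ → ℤ) : 0 ≤ bil Q a a := by
  rcases hQ a with h | h <;> omega

theorem bil_eq_zero (hs : ∀ i j, Q i j = Q j i) {a : κ → ℤ} (ha : bil Q a a = 0) (b : κ → ℤ) :
    bil Q a b = 0 := by
  have hsymm : bil Q b a = bil Q a b := by
    rw [bil, bil, Finset.sum_comm]
    exact Finset.sum_congr rfl fun i _ => Finset.sum_congr rfl fun j _ => by rw [hs j i]; ring
  have key : ∀ t : ℤ, 0 ≤ 2 * t * bil Q a b + bil Q b b := fun t => by
    have h := bil_nonneg hQ hμ (t • a + b)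
    simp only [bil_add_left, bil_add_right, bil_smul_left, bil_smul_right, ha, hsymm] at h
    linarith
  by_contra hne
  have hb := bil_nonneg hQ hμ b
  rcases lt_or_gt_of_ne hne with h | h
  · nlinarith [key (bil Q b b + 1)]
  · nlinarith [key (-(bil Q b b + 1))]

theorem vecWeight_nonneg {p : ℕ} (a : Fin p → κ → ℤ) : 0 ≤ vecWeight Q a := by
  have := two_mul_vecWeight Q a
  have : 0 ≤ ∑ s, ∑ t, bil Q (a s - a t) (a s - a t) :=
    Finset.sum_nonneg fun s _ => Finset.sum_nonneg fun t _ => bil_nonneg hQ hμ _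
  linarith

theorem vecWeight_ge (hs : ∀ i j, Q i j = Q j i) {p : ℕ} (a : Fin p → κ → ℤ) {s₀ s₁ : Fin p}
    (h : bil Q (a s₀ - a s₁) (a s₀ - a s₁) ≠ 0) : ((p : ℤ) - 1) * μ ≤ vecWeight Q a := by
  classical
  set lab : Fin p → ℤ := fun s => if bil Q (a s - a s₀) (a s - a s₀) = 0 then 0 else 1 with hlab
  have h0 : lab s₀ = 0 := by simp [hlab, bil]
  have h1 : lab s₁ = 1 := by
    simp only [hlab]
    rw [if_neg]
    intro hc
    apply h
    simp only [bil_sub_left, bil_sub_right] at hc ⊢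
    linarith
  have hle : ∀ s t, μ * (lab s - lab t) ^ 2 ≤ bil Q (a s - a t) (a s - a t) := by
    intro s t
    have hn := bil_nonneg hQ hμ (a s - a t)
    rcases hQ (a s - a t) with he | he
    · have hst : lab s = lab t := by
        simp only [hlab]
        have key : bil Q (a s - a s₀) (a s - a s₀) = bil Q (a t - a s₀) (a t - a s₀) := by
          have hd : a s - a s₀ = (a s - a t) + (a t - a s₀) := by abel
          rw [hd, bil_add_left, bil_add_right, bil_add_right, bil_eq_zero hQ hμ hs he,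
            bil_eq_zero hQ hμ hs he]
          have hflip : bil Q (a t - a s₀) (a s - a t) = bil Q (a s - a t) (a t - a s₀) := by
            rw [bil, bil, Finset.sum_comm]
            exact Finset.sum_congr rfl fun i _ => Finset.sum_congr rfl fun j _ => by
              rw [hs j i]; ring
          rw [hflip, bil_eq_zero hQ hμ hs he]
          ring
        rw [key]
      rw [hst, sub_self]
      simp [he]
    · have : (lab s - lab t) ^ 2 ≤ 1 := by
        simp only [hlab]; split_ifs <;> norm_num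
      nlinarith
  have hw : (p : ℤ) - 1 ≤ classWeight lab := classWeight_ge lab (i₀ := s₀) (i₁ := s₁)
    (by rw [h0, h1]; norm_num)
  have h2 : μ * (2 * classWeight lab) ≤ 2 * vecWeight Q a := by
    rw [two_mul_classWeight, two_mul_vecWeight, Finset.mul_sum]
    refine Finset.sum_le_sum fun s _ => ?_
    rw [Finset.mul_sum]
    exact Finset.sum_le_sum fun t _ => hle s t
  nlinarith

end Form

variable {p : ℕ} {M : Ideal AlgInt} [M.IsPrime]

/-- The members of nonzero value, `μ` times, are at most the total value. -/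
theorem card_form_le (hM : IsPModular p M) {k : ℕ} {ζ : ℂ} (hζ : IsPrimitiveRoot ζ (p * p ^ k))
    {ι : Type u} [Fintype ι] {κ : Type v} [Fintype κ] (Q : κ → κ → ℤ) (hs : ∀ i j, Q i j = Q j i)
    {μ : ℤ} (hμ : 1 ≤ μ) (hQ : ∀ a, bil Q a a = 0 ∨ μ ≤ bil Q a a) (n : ι → κ → ℂ)
    (hn : ∀ x i, n x i ∈ cycSpan ζ) (c : ℤ)
    (hsum : ∑ x, ∑ i, ∑ i', n x i * (Q i i' : ℂ) * conj (n x i') = (c : ℂ)) :
    μ * Nat.card {x // ∑ i, ∑ i', n x i * (Q i i' : ℂ) * conj (n x i') ≠ 0} ≤ c := by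
  classical
  have hp := hM.1
  set K := p ^ k with hK
  have hK0 : K ≠ 0 := pow_ne_zero _ hp.ne_zero
  set N := p * K with hN
  have hN0 : N ≠ 0 := mul_ne_zero hp.ne_zero hK0
  haveI : NeZero N := ⟨hN0⟩
  have hrep : ∀ x i, ∃ a : Fin N → ℤ, n x i = ∑ e : Fin N, (a e : ℂ) * ζ ^ (e : ℕ) := by
    intro x i
    have h : n x i ∈ Submodule.span ℤ (Set.range fun e : Fin N => ζ ^ (e : ℕ)) := by
      refine Submodule.span_le.2 ?_ (hn x i)
      rintro _ ⟨e, rfl⟩
      refine Submodule.subset_span ⟨⟨e % N, Nat.mod_lt _ (Nat.pos_of_ne_zero hN0)⟩, ?_⟩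
      exact (pow_eq_pow_mod e hζ.pow_eq_one).symm
    obtain ⟨a, ha⟩ := Submodule.mem_span_range_iff_exists_fun ℤ |>.1 h
    exact ⟨a, by rw [← ha]; simp [zsmul_eq_mul]⟩
  choose a ha using hrep
  set f : ι → κ → ℂ → ℂ := fun x i ω => ∑ e : Fin N, (a x i e : ℂ) * ω ^ (e : ℕ) with hf
  set V : ι → ℂ → ℂ := fun x ω => ∑ i, ∑ i', f x i ω * (Q i i' : ℂ) * conj (f x i' ω) with hV
  set E : Fin p × Fin K ≃ Fin N := finProdFinEquiv with hE
  set A : ι → Fin K → Fin p → κ → ℤ := fun x r s i => a x i (E (s, r)) with hA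
  have hEval : ∀ z : Fin p × Fin K, ((E z : Fin N) : ℕ) = (z.2 : ℕ) + K * (z.1 : ℕ) := fun z => rfl
  have hη : IsPrimitiveRoot (ζ ^ p) K := hζ.pow (Nat.pos_of_ne_zero hN0) rfl
  have hsmall : ∀ x i j, f x i ((ζ ^ p) ^ j) =
      ∑ r : Fin K, ((∑ s : Fin p, A x r s i : ℤ) : ℂ) * ((ζ ^ p) ^ j) ^ (r : ℕ) := by
    intro x i j
    simp only [hf]
    rw [← E.sum_comp, Fintype.sum_prod_type, Finset.sum_comm]
    push_cast
    simp only [Finset.sum_mul]
    refine Finset.sum_congr rfl fun r _ => Finset.sum_congr rfl fun s _ => ?_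
    rw [hA, hEval, pow_add, pow_mul ((ζ ^ p) ^ j), ← pow_mul (ζ ^ p) j K, mul_comm j K,
      pow_mul (ζ ^ p), hη.pow_eq_one, one_pow, one_pow, mul_one]
  have hpar : ∀ (L : ℕ) (η : ℂ), IsPrimitiveRoot η L → L ≠ 0 → ∀ d : Fin L → κ → ℤ,
      ∑ j ∈ Finset.range L, ∑ i, ∑ i', (∑ e : Fin L, (d e i : ℂ) * (η ^ j) ^ (e : ℕ)) *
          (Q i i' : ℂ) * conj (∑ e : Fin L, (d e i' : ℂ) * (η ^ j) ^ (e : ℕ)) =
        (((L : ℤ) * ∑ e : Fin L, bil Q (d e) (d e) : ℤ) : ℂ) := by
    intro L η hη hL d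
    rw [Finset.sum_comm]
    rw [show (((L : ℤ) * ∑ e : Fin L, bil Q (d e) (d e) : ℤ) : ℂ) =
      ∑ i, ∑ i', (Q i i' : ℂ) * (((L : ℤ) * ∑ e : Fin L, d e i * d e i' : ℤ) : ℂ) from ?_]
    · refine Finset.sum_congr rfl fun i _ => ?_
      rw [Finset.sum_comm]
      refine Finset.sum_congr rfl fun i' _ => ?_
      rw [← sum_eval_mul_conj₂ hη hL (fun e => d e i) (fun e => d e i'), Finset.mul_sum]
      exact Finset.sum_congr rfl fun j _ => by ring
    · simp only [bil, Int.cast_mul, Int.cast_natCast, Int.cast_sum, Finset.mul_sum]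
      rw [Finset.sum_comm]
      refine Finset.sum_congr rfl fun i _ => ?_
      rw [Finset.sum_comm]
      exact Finset.sum_congr rfl fun i' _ => Finset.sum_congr rfl fun e _ => by ring
  have hall : ∀ x, ∑ j ∈ Finset.range N, V x (ζ ^ j) -
      ∑ j ∈ Finset.range K, V x ((ζ ^ p) ^ j) =
      (((K : ℤ) * ∑ r : Fin K, vecWeight Q (A x r) : ℤ) : ℂ) := by
    intro x
    simp only [hV, hsmall]
    simp only [hf]
    rw [hpar N ζ hζ hN0 fun e i => a x i e, hpar K (ζ ^ p) hη hK0 fun r i => ∑ s, A x r s i,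
      ← Int.cast_sub]
    congr 1
    simp only [vecWeight, Finset.sum_sub_distrib, ← Finset.mul_sum]
    rw [← E.sum_comp, Fintype.sum_prod_type, Finset.sum_comm,
      show (N : ℤ) = (p : ℤ) * K from Nat.cast_mul p K]
    have hsr : ∀ r, (∑ s, A x r s) = fun i => ∑ s, A x r s i := fun r =>
      funext fun i => Finset.sum_apply i _ _
    simp only [hsr]
    simp only [hA]
    ring
  have hconj : ∀ x i, ∀ ω : ℂ, ω ^ N = 1 → conj (f x i ω) = f x i ω⁻¹ := by
    intro x i ω hω
    simp only [hf, map_sum, map_mul, map_intCast, map_pow, conj_root hN0 hω]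
  have hyf : ∀ x i, n x i = f x i ζ := fun x i => ha x i
  have hprim : ∀ j, ¬ p ∣ j → ∑ x, V x (ζ ^ j) = (c : ℂ) := by
    intro j hj
    have hcop : j.Coprime N := by
      rw [hN, hK, ← pow_succ']
      exact Nat.Coprime.pow_right _ ((hp.coprime_iff_not_dvd.2 hj).symm)
    obtain ⟨σ, hσ⟩ := CharGalois.exists_aut_pow (Nat.pos_of_ne_zero hN0) hcop
    have hσf : ∀ x i, ∀ ω : ℂ, ω ^ N = 1 → σ (f x i ω) = f x i (ω ^ j) := by
      intro x i ω hω
      simp only [hf, map_sum, map_mul, map_intCast, map_pow, hσ ω hω]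
    have hz : ζ ^ N = 1 := hζ.pow_eq_one
    have hzj : (ζ ^ j) ^ N = 1 := by rw [← pow_mul, mul_comm, pow_mul, hz, one_pow]
    have h := congrArg σ hsum
    rw [map_sum, map_intCast] at h
    refine Eq.trans (Finset.sum_congr rfl fun x _ => ?_) h
    simp only [hV, map_sum, map_mul, map_intCast]
    refine Finset.sum_congr rfl fun i _ => Finset.sum_congr rfl fun i' _ => ?_
    rw [hyf, hyf, hσf x i ζ hz, hconj x i' ζ hz, hσf x i' ζ⁻¹ (by rw [inv_pow, hz, inv_one]),
      hconj x i' (ζ ^ j) hzj, inv_pow]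
  have hweight : ∑ x, ∑ r : Fin K, vecWeight Q (A x r) = ((p : ℤ) - 1) * c := by
    have himg : (Finset.range N).filter (p ∣ ·) = (Finset.range K).image (p * ·) := by
      ext j
      simp only [Finset.mem_filter, Finset.mem_range, Finset.mem_image]
      constructor
      · rintro ⟨hj, t, rfl⟩
        exact ⟨t, Nat.lt_of_mul_lt_mul_left hj, rfl⟩
      · rintro ⟨t, ht, rfl⟩
        exact ⟨Nat.mul_lt_mul_of_pos_left ht hp.pos, dvd_mul_right _ _⟩
    have h1 : ∑ x, (((K : ℤ) * ∑ r : Fin K, vecWeight Q (A x r) : ℤ) : ℂ) =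
        (((Finset.range N).filter (¬ p ∣ ·)).card : ℂ) * c := by
      rw [← Finset.sum_congr rfl fun x _ => hall x]
      rw [← nsmul_eq_mul, ← Finset.sum_const,
        ← Finset.sum_congr rfl fun j hj => hprim j (Finset.mem_filter.1 hj).2,
        Finset.sum_comm (s := (Finset.range N).filter _)]
      refine Finset.sum_congr rfl fun x _ => ?_
      rw [← Finset.sum_filter_add_sum_filter_not (Finset.range N) (p ∣ ·) fun j => V x (ζ ^ j), himg,
        Finset.sum_image fun y _ z _ h => Nat.eq_of_mul_eq_mul_left hp.pos h]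
      simp only [pow_mul]
      ring
    have hcard : (((Finset.range N).filter (¬ p ∣ ·)).card : ℤ) = ((p : ℤ) - 1) * K := by
      have h := Finset.card_filter_add_card_filter_not (s := Finset.range N) (p ∣ ·)
      rw [himg, Finset.card_image_of_injective _ fun y z h => Nat.eq_of_mul_eq_mul_left hp.pos h,
        Finset.card_range, Finset.card_range] at h
      have h' : (K : ℤ) + (((Finset.range N).filter (¬ p ∣ ·)).card : ℤ) = (p : ℤ) * K := by
        exact_mod_cast h.trans hN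
      linarith
    have h2 : ((∑ x, (K : ℤ) * ∑ r : Fin K, vecWeight Q (A x r) : ℤ) : ℂ) =
        (((((Finset.range N).filter (¬ p ∣ ·)).card : ℤ) * c : ℤ) : ℂ) := by
      rw [Int.cast_sum, h1]
      push_cast
      rfl
    have h3 := Int.cast_injective h2
    rw [hcard, ← Finset.mul_sum] at h3
    exact mul_left_cancel₀ (Int.natCast_ne_zero.2 hK0) (h3.trans (by ring))
  -- a member all of whose classes are constant modulo the kernel has value zero
  have hone : ∀ x, V x ζ ≠ 0 → ∃ r s₀ s₁, bil Q (A x r s₀ - A x r s₁) (A x r s₀ - A x r s₁) ≠ 0 := by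
    intro x hx
    by_contra! hc
    refine hx ?_
    have h0 : (0 : ℕ) < p := hp.pos
    set o : Fin p := ⟨0, h0⟩
    set D : Fin K → Fin p → κ → ℤ := fun r s => A x r s - A x r o with hD
    have hker : ∀ i', ∑ i, f x i ζ * (Q i i' : ℂ) = 0 := by
      intro i'
      let e' : κ → ℤ := fun j => if j = i' then 1 else 0
      have he' : ∀ v : κ → ℤ, bil Q v e' = ∑ i, v i * Q i i' := fun v => by
        simp [bil, e']
      have hz : ∀ r s, ∑ i, D r s i * Q i i' = 0 := fun r s => by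
        rw [← he']
        exact bil_eq_zero hQ hμ hs (hc r s o) _
      have hω : IsPrimitiveRoot (ζ ^ K) p := hζ.pow (Nat.pos_of_ne_zero hN0) (Nat.mul_comm _ _)
      have hfi : ∀ i, f x i ζ = ∑ r : Fin K, ∑ s : Fin p,
          ((D r s i : ℤ) : ℂ) * ζ ^ (r : ℕ) * (ζ ^ K) ^ (s : ℕ) := fun i => by
        simp only [hf]
        rw [← E.sum_comp, Fintype.sum_prod_type, Finset.sum_comm]
        refine Finset.sum_congr rfl fun r _ => ?_
        have hzero : ∑ s : Fin p, (A x r o i : ℂ) * ζ ^ (r : ℕ) * (ζ ^ K) ^ (s : ℕ) = 0 := by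
          rw [← Finset.mul_sum, Fin.sum_univ_eq_sum_range (fun s => (ζ ^ K) ^ s),
            hω.geom_sum_eq_zero hp.one_lt, mul_zero]
        conv_rhs => rw [← add_zero (∑ s : Fin p, _), ← hzero, ← Finset.sum_add_distrib]
        refine Finset.sum_congr rfl fun s _ => ?_
        rw [hEval, pow_add, pow_mul]
        simp only [hD, hA, Pi.sub_apply]
        push_cast
        ring
      calc ∑ i, f x i ζ * (Q i i' : ℂ)
          = ∑ r : Fin K, ∑ s : Fin p, ((∑ i, D r s i * Q i i' : ℤ) : ℂ) *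
              (ζ ^ (r : ℕ) * (ζ ^ K) ^ (s : ℕ)) := by
            simp only [hfi, Finset.sum_mul, Int.cast_sum, Int.cast_mul]
            rw [Finset.sum_comm]
            refine Finset.sum_congr rfl fun r _ => ?_
            rw [Finset.sum_comm]
            exact Finset.sum_congr rfl fun s _ => Finset.sum_congr rfl fun i _ => by ring
        _ = 0 := by simp [hz]
    simp only [hV]
    rw [Finset.sum_comm]
    refine Finset.sum_eq_zero fun i' _ => ?_
    rw [← Finset.sum_mul, hker, zero_mul]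
  have hle : ∑ x, ((p : ℤ) - 1) * (if V x ζ ≠ 0 then μ else 0) ≤ ((p : ℤ) - 1) * c := by
    rw [← hweight]
    refine Finset.sum_le_sum fun x _ => ?_
    by_cases h1 : V x ζ ≠ 0
    · obtain ⟨r, s₀, s₁, hne⟩ := hone x h1
      rw [if_pos h1]
      exact (vecWeight_ge hQ hμ hs _ hne).trans
        (Finset.single_le_sum (fun y _ => vecWeight_nonneg hQ hμ (A x y)) (Finset.mem_univ r))
    · rw [if_neg h1, mul_zero]
      exact Finset.sum_nonneg fun r _ => vecWeight_nonneg hQ hμ _
  rw [← Finset.mul_sum] at hle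
  have hp1 : (0 : ℤ) < (p : ℤ) - 1 := by have := hp.two_le; omega
  have h := le_of_mul_le_mul_left hle hp1
  have hV' : ∀ x, ∑ i, ∑ i', n x i * (Q i i' : ℂ) * conj (n x i') = V x ζ := fun x => by
    simp only [hV, hyf]
  simp only [hV', Nat.card_eq_fintype_card, Fintype.card_subtype]
  rw [← Finset.sum_filter, Finset.sum_const, nsmul_eq_mul] at h
  linarith

end Cfsg.Agent.Lib.MajorForm
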