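import Cfsg.Agent.Lib.MajorForm.Bound
import Cfsg.Agent.Lib.CyclicDefect.Structure

/-!
# The minimum of the form of a block with cyclic defect group

In the basis of the signed regular parts of the non-exceptional members the scaled form is
`p ^ a • 1 - r • J`, whose least nonzero value is the inertial index.
-/

set_option autoImplicit false
set_option linter.unusedSectionVars false
set_option linter.style.haveILetI false

namespace Cfsg.Agent.Lib.MajorForm

open Cfsg Cfsg.Agent.Lib Cfsg.Agent.Lib.Block Cfsg.Agent.Lib.BrauerPairs Cfsg.Agent.Lib.CyclicDefect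
open scoped ComplexConjugate

universe u

/-- The values of `(1 + r m) • 1 - r • J` on integer vectors. -/
theorem form_value_ge {ι : Type*} [Fintype ι] (a : ι → ℤ) (r : ℕ) (hr : 1 ≤ r) :
    ((1 + (r : ℤ) * Fintype.card ι) * ∑ i, a i ^ 2 - r * (∑ i, a i) ^ 2 = 0 ∧ ∀ i, a i = 0) ∨
      (Fintype.card ι : ℤ) ≤
        (1 + (r : ℤ) * Fintype.card ι) * ∑ i, a i ^ 2 - r * (∑ i, a i) ^ 2 := by
  classical
  by_cases ha : ∀ i, a i = 0
  · exact Or.inl ⟨by simp [ha], ha⟩
  right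
  push Not at ha
  obtain ⟨i₀, hi₀⟩ := ha
  set T := Finset.univ.filter fun i => a i ≠ 0 with hT
  have hsum : ∑ i, a i = ∑ i ∈ T, a i := (Finset.sum_filter_ne_zero _).symm
  have hsq : ∑ i ∈ T, a i ^ 2 ≤ ∑ i, a i ^ 2 :=
    Finset.sum_le_sum_of_subset_of_nonneg (Finset.subset_univ _) fun i _ _ => sq_nonneg _
  have h1 : (∑ i, a i) ^ 2 ≤ (T.card : ℤ) * ∑ i, a i ^ 2 := by
    rw [hsum]
    exact (sq_sum_le_card_mul_sum_sq).trans (mul_le_mul_of_nonneg_left hsq (Int.natCast_nonneg _))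
  have h2 : (T.card : ℤ) ≤ ∑ i, a i ^ 2 := by
    refine le_trans ?_ hsq
    rw [Finset.card_eq_sum_ones, Nat.cast_sum]
    refine Finset.sum_le_sum fun i hi => ?_
    have := sq_pos_iff.2 (Finset.mem_filter.1 hi).2
    push_cast
    omega
  have ht1 : 1 ≤ T.card := Finset.card_pos.2 ⟨i₀, Finset.mem_filter.2 ⟨Finset.mem_univ _, hi₀⟩⟩
  have htm : T.card ≤ Fintype.card ι := Finset.card_le_univ T
  have hr' : (1 : ℤ) ≤ r := by exact_mod_cast hr
  have ht1' : (1 : ℤ) ≤ T.card := by exact_mod_cast ht1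
  have htm' : (T.card : ℤ) ≤ Fintype.card ι := by exact_mod_cast htm
  have hd : 0 ≤ (r : ℤ) * ((Fintype.card ι : ℤ) - T.card) := mul_nonneg (by omega) (by omega)
  have h3 : (r : ℤ) * (∑ i, a i) ^ 2 ≤ r * ((T.card : ℤ) * ∑ i, a i ^ 2) :=
    mul_le_mul_of_nonneg_left h1 (by omega)
  have h4 : (1 + (r : ℤ) * ((Fintype.card ι : ℤ) - T.card)) * T.card ≤
      (1 + (r : ℤ) * ((Fintype.card ι : ℤ) - T.card)) * ∑ i, a i ^ 2 :=
    mul_le_mul_of_nonneg_left h2 (by omega)
  have h5 : ((Fintype.card ι : ℤ) - T.card) ≤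
      (r : ℤ) * ((Fintype.card ι : ℤ) - T.card) * T.card := by
    calc ((Fintype.card ι : ℤ) - T.card) = 1 * ((Fintype.card ι : ℤ) - T.card) * 1 := by ring
      _ ≤ _ := mul_le_mul (mul_le_mul_of_nonneg_right hr' (by omega)) ht1' (by omega) hd
  nlinarith

variable {p : ℕ} {M : Ideal AlgInt} [M.IsPrime] {G : Type u} [Group G] [Finite G]
  {B : Set (IrrCharacter G)} {P : Subgroup G} {e : CBlock P}

/-- The scaled form of a block with cyclic defect group has least value the inertial index. -/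
theorem hasFormMin_cyclic [Fintype G] (S : Setup p M B P e) : HasFormMin p S.a B S.m := by
  classical
  obtain ⟨hrank, -, X, Y, hXY, hdisj, hXc, hYc, hYeq, δ, δ₀, hδ, hδ₀, hrel, -, -⟩ :=
    S.exists_structure
  haveI : Fact p.Prime := ⟨S.hM.1⟩
  have hB : IsPBlock M B := S.hmax.1.2.1
  set g : X → G → ℂ := fun χ => (δ χ.1 : ℂ) • pRegularPart p (χ.1 : G → ℂ) with hg
  have hδ2 : ∀ χ ∈ X, (δ χ : ℂ) * (δ χ : ℂ) = 1 := fun χ hχ => by
    rcases hδ χ hχ with h | h <;> simp [h]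
  have hδ02 : (δ₀ : ℂ) * (δ₀ : ℂ) = 1 := by rcases hδ₀ with h | h <;> simp [h]
  have hX : ∀ χ : X, pRegularPart p (χ.1 : G → ℂ) = (δ χ.1 : ℂ) • g χ := fun χ => by
    rw [hg, smul_smul, hδ2 _ χ.2, one_smul]
  have hY : ∀ ψ ∈ Y, pRegularPart p (ψ : G → ℂ) = -(δ₀ : ℂ) • ∑ χ : X, g χ := by
    intro ψ hψ
    funext y
    simp only [Pi.smul_apply, Finset.sum_apply, hg, pRegularPart_apply, smul_eq_mul]
    split_ifs with hy
    · simp
    · have h := hrel ψ hψ y hy
      rw [finsum_mem_eq_finite_toFinset_sum _ (Set.toFinite X)] at h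
      rw [show (∑ χ : X, (δ χ.1 : ℂ) * (χ.1 : G → ℂ) y) =
        ∑ χ ∈ (Set.toFinite X).toFinset, (δ χ : ℂ) * (χ : G → ℂ) y from
          (Finset.sum_subtype _ (fun χ => by simp) (fun χ => (δ χ : ℂ) * (χ : G → ℂ) y)).symm]
      calc (ψ : G → ℂ) y = (δ₀ : ℂ) * ((δ₀ : ℂ) * (ψ : G → ℂ) y) := by
            rw [← mul_assoc, hδ02, one_mul]
        _ = _ := by rw [eq_neg_of_add_eq_zero_left h]; ring
  have hspan : regSpan p B = Submodule.span ℂ (Set.range g) := by
    refine le_antisymm (Submodule.span_le.2 ?_) (Submodule.span_le.2 ?_)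
    · rintro _ ⟨ξ, hξ, rfl⟩
      rcases (hXY ▸ hξ : ξ ∈ X ∪ Y) with h | h
      · show pRegularPart p (ξ : G → ℂ) ∈ _
        rw [show pRegularPart p (ξ : G → ℂ) = (δ ξ : ℂ) • g ⟨ξ, h⟩ from hX ⟨ξ, h⟩]
        exact Submodule.smul_mem _ _ (Submodule.subset_span ⟨_, rfl⟩)
      · show pRegularPart p (ξ : G → ℂ) ∈ _
        rw [hY ξ h]
        exact Submodule.smul_mem _ _ (Submodule.sum_mem _ fun χ _ => Submodule.subset_span ⟨_, rfl⟩)
    · rintro _ ⟨χ, rfl⟩
      exact Submodule.smul_mem _ _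
        (Submodule.subset_span ⟨χ.1, hXY ▸ Or.inl χ.2, rfl⟩)
  have hli : LinearIndependent ℂ g := by
    rw [linearIndependent_iff_card_eq_finrank_span, Set.finrank, ← hspan, finrank_regSpan, hrank,
      ← hXc, Nat.card_eq_fintype_card]
  -- the Gram matrix
  set R : X → X → ℂ := fun χ χ' => classInner (g χ) (g χ') with hR
  have hRr : ∀ χ χ' : X, R χ χ' = (δ χ.1 : ℂ) * (δ χ'.1 : ℂ) *
      regInner p (χ.1 : G → ℂ) (χ'.1 : G → ℂ) := fun χ χ' => by
    simp only [hR, hg, Char.classInner_smul_left, Char.classInner_smul_right, map_intCast,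
      classInner_pRegularPart]
    ring
  have hRY : ∀ (χ : X), ∀ ψ ∈ Y, classInner (g χ) (pRegularPart p (ψ : G → ℂ)) =
      -(δ₀ : ℂ) * ∑ χ', R χ χ' := fun χ ψ hψ => by
    rw [hY ψ hψ, Char.classInner_smul_right, Char.classInner_sum_right]
    simp only [map_neg, map_intCast, hR]
  have hexp : ∀ χ : X, g χ = ∑ χ' : X, (R χ χ' + (S.r : ℂ) * ∑ χ'', R χ χ'') • g χ' := by
    intro χ
    have h := congrArg (pRegularPart p) (pRegularPart_eq_sum (b := B) S.hM hB
      (η := χ.1) (hXY ▸ Or.inl χ.2))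
    have hL : pRegularPart p (χ.1 : G → ℂ) = ∑ ξ : IrrCharacter G, if ξ ∈ B then
        regInner p (χ.1 : G → ℂ) (ξ : G → ℂ) • pRegularPart p (ξ : G → ℂ) else 0 := by
      funext y
      have hy := congrFun h y
      simp only [pRegularPart_apply, Finset.sum_apply] at hy ⊢
      by_cases hp : p ∣ orderOf y
      · simp only [hp, if_true] at hy ⊢
        refine (Finset.sum_eq_zero fun ξ _ => ?_).symm
        split_ifs <;> simp [pRegularPart_apply, hp]
      · simp only [hp, if_false] at hy ⊢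
        rw [hy]
        refine Finset.sum_congr rfl fun ξ _ => ?_
        split_ifs <;> simp [pRegularPart_apply, hp]
    have hg' : g χ = (δ χ.1 : ℂ) • pRegularPart p (χ.1 : G → ℂ) := rfl
    rw [hg', hL, Finset.smul_sum]
    have hsplit : ∀ F : IrrCharacter G → G → ℂ, (∑ ξ : IrrCharacter G, if ξ ∈ B then F ξ else 0) =
        (∑ ξ : X, F ξ.1) + ∑ ξ : Y, F ξ.1 := fun F => by
      rw [← Finset.sum_subtype (Finset.univ.filter fun ξ => ξ ∈ X) (fun ξ => by simp) F,
        ← Finset.sum_subtype (Finset.univ.filter fun ξ => ξ ∈ Y) (fun ξ => by simp) F,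
        ← Finset.sum_union (Finset.disjoint_left.2 fun ξ h1 h2 =>
          Set.disjoint_left.1 hdisj (Finset.mem_filter.1 h1).2 (Finset.mem_filter.1 h2).2),
        ← Finset.sum_filter]
      exact Finset.sum_congr (Finset.ext fun ξ => by simp [hXY]) fun _ _ => rfl
    simp only [smul_ite, smul_zero]
    rw [hsplit]
    simp only [add_smul, Finset.sum_add_distrib]
    congr 1
    · refine Finset.sum_congr rfl fun χ' _ => ?_
      rw [hX χ', smul_smul, smul_smul, hRr]
      congr 1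
      ring
    · rw [Finset.sum_congr rfl fun (ψ : Y) _ => show (δ χ.1 : ℂ) •
        (regInner p (χ.1 : G → ℂ) (ψ.1 : G → ℂ) • pRegularPart p (ψ.1 : G → ℂ)) =
          (∑ χ'', R χ χ'') • ∑ χ', g χ' by
        have h1 := hRY χ ψ.1 ψ.2
        rw [hg', Char.classInner_smul_left, classInner_pRegularPart] at h1
        rw [hY ψ.1 ψ.2, smul_smul, smul_smul, h1,
          show -(δ₀ : ℂ) * (∑ χ'', R χ χ'') * -(δ₀ : ℂ) =
            ((δ₀ : ℂ) * δ₀) * ∑ χ'', R χ χ'' by ring, hδ02, one_mul],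
        Finset.sum_const, Finset.card_univ, ← Nat.card_eq_fintype_card, hYc, ← Finset.smul_sum,
        ← Nat.cast_smul_eq_nsmul ℂ, smul_smul]
  have hRval : ∀ χ χ' : X, R χ χ' + (S.r : ℂ) * ∑ χ'', R χ χ'' = if χ = χ' then 1 else 0 := by
    intro χ χ'
    refine congrFun (?_ : (fun χ' => R χ χ' + (S.r : ℂ) * ∑ χ'', R χ χ'') =
      fun χ' => if χ = χ' then 1 else 0) χ'
    refine funext (Fintype.linearIndependent_iffₛ.1 hli _ _ ?_)
    rw [← hexp]
    simp
  have hcardX : Fintype.card X = S.m := by rw [← hXc, Nat.card_eq_fintype_card]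
  have hpa : (p : ℂ) ^ S.a = (S.r : ℂ) * S.m + 1 := by
    rw [← Nat.cast_pow, ← S.m_mul_r_add]; push_cast; ring
  have hrow : ∀ χ : X, (p : ℂ) ^ S.a * ∑ χ'', R χ χ'' = 1 := fun χ => by
    have h := Finset.sum_congr rfl fun χ' (_ : χ' ∈ (Finset.univ : Finset X)) => hRval χ χ'
    simp only [Finset.sum_add_distrib, Finset.sum_const, Finset.card_univ, hcardX, nsmul_eq_mul,
      Finset.sum_ite_eq, Finset.mem_univ, if_true] at h
    rw [hpa]
    linear_combination h
  intro c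
  -- the coordinates
  let a : X → ℤ := fun χ => c χ.1 * δ χ.1 - δ₀ * ∑ ψ : Y, c ψ.1
  have hcomb : regComb p B c = ∑ χ : X, (a χ : ℂ) • g χ := by
    rw [regComb, ← Finset.sum_filter]
    have hu : (Finset.univ.filter fun ξ => ξ ∈ B) =
        (Finset.univ.filter fun ξ => ξ ∈ X) ∪ Finset.univ.filter fun ξ => ξ ∈ Y :=
      Finset.ext fun ξ => by simp [hXY]
    rw [hu, Finset.sum_union (Finset.disjoint_left.2 fun ξ h1 h2 =>
      Set.disjoint_left.1 hdisj (Finset.mem_filter.1 h1).2 (Finset.mem_filter.1 h2).2),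
      Finset.sum_subtype (Finset.univ.filter fun ξ => ξ ∈ X) (p := fun ξ => ξ ∈ X) (fun ξ => by simp)
        (fun ξ => (c ξ : ℂ) • pRegularPart p (ξ : G → ℂ)),
      Finset.sum_subtype (Finset.univ.filter fun ξ => ξ ∈ Y) (p := fun ξ => ξ ∈ Y) (fun ξ => by simp)
        (fun ξ => (c ξ : ℂ) • pRegularPart p (ξ : G → ℂ))]
    simp only [a, Int.cast_sub, Int.cast_mul, Int.cast_sum, sub_smul, Finset.sum_sub_distrib]
    rw [sub_eq_add_neg]
    congr 1
    · exact Finset.sum_congr rfl fun χ _ => by rw [hX χ, smul_smul]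
    · rw [← Finset.smul_sum, Finset.sum_congr rfl fun (ψ : Y) _ => show
        (c ψ.1 : ℂ) • pRegularPart p (ψ.1 : G → ℂ) = (-((δ₀ : ℂ) * c ψ.1)) • ∑ χ, g χ by
          rw [hY ψ.1 ψ.2, smul_smul]; congr 1; ring,
        ← Finset.sum_smul, ← neg_smul]
      congr 1
      rw [Finset.sum_neg_distrib, Finset.mul_sum]
  have hval : (p : ℂ) ^ S.a * classInner (regComb p B c) (regComb p B c) =
      (((1 + (S.r : ℤ) * Fintype.card X) * ∑ χ, a χ ^ 2 - S.r * (∑ χ, a χ) ^ 2 : ℤ) : ℂ) := by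
    rw [hcomb]
    simp only [Char.classInner_sum_left, Char.classInner_sum_right, Char.classInner_smul_left,
      Char.classInner_smul_right, map_intCast, Finset.mul_sum]
    rw [Finset.sum_comm]
    have hent : ∀ χ χ' : X, (p : ℂ) ^ S.a * R χ χ' =
        (if χ = χ' then (p : ℂ) ^ S.a else 0) - S.r := fun χ χ' => by
      have h1 := hRval χ χ'
      have h2 := hrow χ
      split_ifs with h
      · rw [if_pos h] at h1
        linear_combination (p : ℂ) ^ S.a * h1 - (S.r : ℂ) * h2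
      · rw [if_neg h] at h1
        linear_combination (p : ℂ) ^ S.a * h1 - (S.r : ℂ) * h2
    rw [Finset.sum_congr rfl fun χ _ => Finset.sum_congr rfl fun χ' _ => show
      (p : ℂ) ^ S.a * ((a χ' : ℂ) * ((a χ : ℂ) * classInner (g χ) (g χ'))) =
        (if χ = χ' then (p : ℂ) ^ S.a * ((a χ : ℂ) * a χ') else 0) - (S.r : ℂ) * ((a χ : ℂ) * a χ') by
      rw [show (p : ℂ) ^ S.a * ((a χ' : ℂ) * ((a χ : ℂ) * classInner (g χ) (g χ'))) =
        ((a χ : ℂ) * a χ') * ((p : ℂ) ^ S.a * R χ χ') by simp only [hR]; ring, hent]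
      split_ifs <;> ring]
    simp only [Finset.sum_sub_distrib, Finset.sum_ite_eq, Finset.mem_univ, if_true]
    push_cast
    rw [sq (∑ χ : X, (a χ : ℂ)), Finset.sum_mul_sum, hpa, hcardX, Finset.mul_sum]
    congr 1
    · exact Finset.sum_congr rfl fun χ _ => by ring
    · exact Finset.sum_congr rfl fun χ _ => (Finset.mul_sum _ _ _).symm
  rcases form_value_ge a S.r (S.r_pos) with ⟨-, h⟩ | h
  · left
    rw [hcomb]
    simp [h]
  · right
    rw [hval, Complex.intCast_re, ← hcardX]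
    exact_mod_cast h

end Cfsg.Agent.Lib.MajorForm
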